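import Cfsg.Agent.H41.TI.Clif
import Cfsg.Agent.SmallSimple.InvolPairs

/-!
# Row `PSL₃(4)` of S4819, S4820, piece j : the class count (helper41, task 5914)
-/

set_option autoImplicit false

open scoped ComplexConjugate
open Cfsg Cfsg.Agent.Characters.Core Cfsg.Agent.Characters.Clifford

namespace Cfsg.Agent.H41.TI

open Cfsg.Agent.H155.TI (Over nz Pair Inv)
open Cfsg.Agent.H41.McLTwo.Cliff (Van card_ext eq_or_of_restrict restrict_of_not_van)

universe u

section Rel

variable {Z W : Type u} [Group Z] [Group W] (k : Z →* W)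

/-- conjugate modulo the central subgroup -/
def Rel (w w' : W) : Prop := ∃ z : Z, IsConj (k z * w) w'

variable {k}

theorem conj_k (hk : ∀ z w, k z * w = w * k z) (z : Z) (g w : W) : g * (k z * w) * g⁻¹ = k z * (g * w * g⁻¹) := by
  rw [← mul_assoc g, ← hk z g]
  group

theorem Rel.refl (w : W) : Rel k w w := ⟨1, by rw [map_one, one_mul]⟩

theorem Rel.symm (hk : ∀ z w, k z * w = w * k z) {w w' : W} (h : Rel k w w') : Rel k w' w := by
  obtain ⟨z, h⟩ := h
  obtain ⟨g, rfl⟩ := isConj_iff.1 h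
  refine ⟨z⁻¹, isConj_iff.2 ⟨g⁻¹, ?_⟩⟩
  rw [conj_k hk, conj_k hk, conj_k hk, map_inv]
  group

theorem Rel.trans (hk : ∀ z w, k z * w = w * k z) {w w' w'' : W} (h : Rel k w w') (h' : Rel k w' w'') : Rel k w w'' := by
  obtain ⟨z, h⟩ := h
  obtain ⟨g, rfl⟩ := isConj_iff.1 h
  obtain ⟨z', h'⟩ := h'
  obtain ⟨g', rfl⟩ := isConj_iff.1 h'
  refine ⟨z' * z, isConj_iff.2 ⟨g' * g, ?_⟩⟩
  rw [conj_k hk, conj_k hk, conj_k hk, conj_k hk, map_mul]
  group

variable (k) in
/-- `|C_W(w)|` times the number of `z` with `w ~ z w` -/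
noncomputable def fw (w : W) : ℕ := Nat.card {p : Z × W // p.2 * (k p.1 * w) * p.2⁻¹ = w}

theorem fw_eq (hk : ∀ z w, k z * w = w * k z) {w0 w : W} (h : Rel k w0 w) :
    fw k w = Nat.card {p : Z × W // p.2 * (k p.1 * w0) * p.2⁻¹ = w} := by
  obtain ⟨z1, h⟩ := h
  obtain ⟨g1, hg⟩ := isConj_iff.1 h
  rw [conj_k hk] at hg
  have key1 : ∀ (z : Z) (g : W), g * (k z * w) * g⁻¹ = w → (g * g1) * (k (z * z1) * w0) * (g * g1)⁻¹ = w := by
    intro z g h1
    rw [conj_k hk] at h1 ⊢
    have h2 : g * g1 * w0 * (g * g1)⁻¹ = g * (g1 * w0 * g1⁻¹) * g⁻¹ := by group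
    rw [h2, map_mul, mul_assoc, ← conj_k hk z1, hg]
    exact h1
  have key2 : ∀ (z : Z) (g : W), g * (k z * w0) * g⁻¹ = w → (g * g1⁻¹) * (k (z * z1⁻¹) * w) * (g * g1⁻¹)⁻¹ = w := by
    intro z g h1
    rw [conj_k hk] at h1 ⊢
    have h2 : g * g1⁻¹ * w * (g * g1⁻¹)⁻¹ = k z1 * (g * w0 * g⁻¹) := by
      rw [← hg, conj_k hk]
      group
    rw [h2, map_mul, map_inv, mul_assoc, inv_mul_cancel_left]
    exact h1
  exact Nat.card_congr
    { toFun := fun p => ⟨(p.1.1 * z1, p.1.2 * g1), key1 _ _ p.2⟩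
      invFun := fun p => ⟨(p.1.1 * z1⁻¹, p.1.2 * g1⁻¹), key2 _ _ p.2⟩
      left_inv := fun p => Subtype.ext (Prod.ext (mul_inv_cancel_right _ _) (mul_inv_cancel_right _ _))
      right_inv := fun p => Subtype.ext (Prod.ext (inv_mul_cancel_right _ _) (inv_mul_cancel_right _ _)) }

theorem sum_class [Fintype W] [Finite Z] (hk : ∀ z w, k z * w = w * k z) (w0 : W)
    [DecidablePred fun w => Rel k w0 w] :
    ∑ w ∈ Finset.univ.filter (fun w => Rel k w0 w), fw k w = Nat.card Z * Nat.card W := by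
  classical
  have := Fintype.ofFinite Z
  rw [← Nat.card_prod, Nat.card_eq_fintype_card, ← Finset.card_univ,
    Finset.card_eq_sum_card_fiberwise (f := fun p : Z × W => p.2 * (k p.1 * w0) * p.2⁻¹)
      (t := Finset.univ.filter (fun w => Rel k w0 w))]
  · refine Finset.sum_congr rfl fun w hw => ?_
    rw [fw_eq hk (Finset.mem_filter.1 hw).2, Nat.card_eq_fintype_card, Fintype.card_subtype]
  · intro p _
    simp only [Finset.coe_filter, Finset.mem_univ, true_and, Set.mem_setOf_eq]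
    exact ⟨p.1, isConj_iff.2 ⟨p.2, rfl⟩⟩

/-- the scalars of the central subgroup -/
theorem central_hom [Finite W] (hk : ∀ z w, k z * w = w * k z) {χ : W → ℂ} (hχ : IsIrrCharacter W χ) :
    ∃ ω : Z →* ℂˣ, ∀ z w, χ (k z * w) = (ω z : ℂ) * χ w := by
  obtain ⟨c, hc, -⟩ := CharactersDeep.Extraspecial.exists_central_hom hχ
  have hmem : ∀ z, k z ∈ Subgroup.center W := fun z => Subgroup.mem_center_iff.2 fun g => (hk z g).symm
  refine ⟨c.comp (k.codRestrict (Subgroup.center W) hmem), fun z w => ?_⟩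
  have h1 := hc w ⟨k z, hmem z⟩
  have h2 : χ (w * k z) = χ w * (c ⟨k z, hmem z⟩ : ℂ) := h1
  rw [hk, h2, mul_comm]
  rfl

/-- the columns over `lam` -/
theorem colF [Fintype W] [Fintype (IrrCharacter W)] [Fintype Z] (hk : ∀ z w, k z * w = w * k z) (lam : Z →* ℂˣ)
    (w w' : W) [DecidablePred fun χ : IrrCharacter W => Over k lam (χ : W → ℂ)] :
    (Nat.card Z : ℂ) * ∑ χ : IrrCharacter W, (if Over k lam (χ : W → ℂ) then (χ : W → ℂ) w * conj ((χ : W → ℂ) w') else 0) =
      ∑ z : Z, ((lam z : ℂ))⁻¹ * (Nat.card {g : W // g * (k z * w) * g⁻¹ = w'} : ℂ) := by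
  classical
  have h1 : ∀ χ : IrrCharacter W, ∑ z : Z, ((lam z : ℂ))⁻¹ * ((χ : W → ℂ) (k z * w) * conj ((χ : W → ℂ) w')) =
      (Nat.card Z : ℂ) * (if Over k lam (χ : W → ℂ) then (χ : W → ℂ) w * conj ((χ : W → ℂ) w') else 0) := by
    intro χ
    obtain ⟨ω, hω⟩ := central_hom hk χ.2
    have h2 : ∑ z : Z, ((lam z : ℂ))⁻¹ * ((χ : W → ℂ) (k z * w) * conj ((χ : W → ℂ) w')) =
        (∑ z : Z, (((Units.coeHom ℂ).comp (lam⁻¹ * ω)) z)) * ((χ : W → ℂ) w * conj ((χ : W → ℂ) w')) := by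
      rw [Finset.sum_mul]
      refine Finset.sum_congr rfl fun z _ => ?_
      rw [hω]
      simp only [MonoidHom.comp_apply, MonoidHom.mul_apply, MonoidHom.inv_apply, Units.coeHom_apply, Units.val_mul,
        Units.val_inv_eq_inv_val]
      ring
    rw [h2, sum_hom_units]
    have hχ1 := one_ne χ.2
    by_cases ho : Over k lam (χ : W → ℂ)
    · have h3 : ω = lam := by
        ext z
        have h4 := ho z 1
        rw [hω] at h4
        exact mul_right_cancel₀ hχ1 h4
      have h5 : (Units.coeHom ℂ).comp (lam⁻¹ * ω) = 1 := by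
        rw [h3]
        ext z
        simp
      rw [if_pos ho, if_pos h5, Nat.card_eq_fintype_card]
    · have h3 : ¬ (Units.coeHom ℂ).comp (lam⁻¹ * ω) = 1 := by
        intro h4
        apply ho
        intro z w
        have h5 := DFunLike.congr_fun h4 z
        simp only [MonoidHom.comp_apply, MonoidHom.mul_apply, MonoidHom.inv_apply, Units.coeHom_apply, Units.val_mul,
          Units.val_inv_eq_inv_val, MonoidHom.one_apply] at h5
        have h6 : (ω z : ℂ) = (lam z : ℂ) := by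
          have h7 : (lam z : ℂ) ≠ 0 := (lam z).ne_zero
          field_simp at h5
          exact h5
        rw [hω, h6]
      rw [if_neg ho, if_neg h3]
      simp
  rw [Finset.mul_sum, ← Finset.sum_congr rfl fun χ _ => h1 χ, Finset.sum_comm]
  refine Finset.sum_congr rfl fun z _ => ?_
  rw [← Finset.mul_sum, SmallSimple.InvolPairs.sum_mul_conj_eq_card]

end Rel

section Nv

variable {W : Type u} [Group W] [Finite W] {N : Subgroup W} [N.Normal]

/-- the characters not vanishing off `N` -/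
theorem card_nv (hN : N.index = 2) (DW : IrrCharacter W → Prop) (DN : IrrCharacter N → Prop)
    (hD : ∀ (χ : IrrCharacter W) (ψ : IrrCharacter N), (∀ n : N, (χ : W → ℂ) n = (ψ : N → ℂ) n) → (DW χ ↔ DN ψ)) :
    Nat.card {χ : IrrCharacter W // DW χ ∧ ¬ Van N χ} =
      2 * Nat.card {ψ : IrrCharacter N // DN ψ ∧ McLTwo.Cliff.Inv N ψ} := by
  classical
  have := Fintype.ofFinite W
  have := Fintype.ofFinite N
  have := finite_irr (G := W)
  have := Fintype.ofFinite (IrrCharacter W)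
  have := finite_irr (G := N)
  have := Fintype.ofFinite (IrrCharacter N)
  have h1 := Finset.card_mul_eq_card_mul (fun (χ : IrrCharacter W) (ψ : IrrCharacter N) =>
      ∀ n : N, (χ : W → ℂ) n = (ψ : N → ℂ) n)
    (s := Finset.univ.filter fun χ : IrrCharacter W => DW χ ∧ ¬ Van N χ)
    (t := Finset.univ.filter fun ψ : IrrCharacter N => DN ψ ∧ McLTwo.Cliff.Inv N ψ) (m := 1) (n := 2)
    (by
      intro χ hχ
      obtain ⟨-, hχD, hχv⟩ := Finset.mem_filter.1 hχ
      obtain ⟨ψ, hψ, hr⟩ := restrict_of_not_van hN hχv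
      rw [Finset.card_eq_one]
      refine ⟨ψ, ?_⟩
      ext ζ
      rw [Finset.mem_bipartiteAbove, Finset.mem_filter, Finset.mem_singleton]
      constructor
      · rintro ⟨-, h⟩
        apply Subtype.ext
        funext n
        rw [← h, hr]
      · rintro rfl
        exact ⟨⟨Finset.mem_univ _, (hD χ ζ hr).1 hχD, hψ⟩, hr⟩)
    (by
      intro ψ hψ
      obtain ⟨-, hψD, hψi⟩ := Finset.mem_filter.1 hψ
      obtain ⟨χ, χ', hne, hv, hv', hall⟩ := card_ext hN hψi
      rw [Finset.card_eq_two]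
      refine ⟨χ, χ', hne, ?_⟩
      ext η
      rw [Finset.mem_bipartiteBelow, Finset.mem_filter, Finset.mem_insert, Finset.mem_singleton]
      constructor
      · rintro ⟨-, h⟩
        exact (hall η).1 h
      · intro h
        have hr := (hall η).2 h
        refine ⟨⟨Finset.mem_univ _, (hD η ψ hr).2 hψD, ?_⟩, hr⟩
        rcases h with rfl | rfl
        · exact hv
        · exact hv')
  rw [Nat.card_eq_fintype_card, Fintype.card_subtype, Nat.card_eq_fintype_card, Fintype.card_subtype]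
  omega

omit [Finite W] [N.Normal] in
theorem sum_in_out [Fintype W] [Fintype N] [DecidablePred fun w : W => w ∉ N] (F : W → ℂ) :
    ∑ w, F w = ∑ n : N, F n + ∑ w ∈ Finset.univ.filter (fun w : W => w ∉ N), F w := by
  classical
  rw [← Finset.sum_filter_add_sum_filter_not Finset.univ (fun w : W => w ∈ N) F]
  congr 1
  symm
  exact (Finset.sum_subtype (Finset.univ.filter fun w : W => w ∈ N) (fun w => by simp) F).symm

/-- the sum off `N` -/
theorem sum_out [Fintype W] (hN : N.index = 2) {χ χ' : IrrCharacter W} (h : ¬ Van N χ) (h' : ¬ Van N χ')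
    [DecidablePred fun w : W => w ∉ N] :
    ((χ : W → ℂ) = χ' → ∑ w ∈ Finset.univ.filter (fun w : W => w ∉ N), (χ : W → ℂ) w * conj ((χ' : W → ℂ) w) =
      (Nat.card N : ℂ)) ∧
    ((∃ n : N, (χ : W → ℂ) n ≠ (χ' : W → ℂ) n) →
      ∑ w ∈ Finset.univ.filter (fun w : W => w ∉ N), (χ : W → ℂ) w * conj ((χ' : W → ℂ) w) = 0) := by
  classical
  have := Fintype.ofFinite N
  obtain ⟨ψ, -, hψ⟩ := restrict_of_not_van hN h
  obtain ⟨ψ', -, hψ'⟩ := restrict_of_not_van hN h'
  have hs := sum_in_out (N := N) (fun w => (χ : W → ℂ) w * conj ((χ' : W → ℂ) w))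
  have hWc : (Nat.card W : ℂ) ≠ 0 := by exact_mod_cast Nat.card_pos.ne'
  have hNc : (Nat.card N : ℂ) ≠ 0 := by exact_mod_cast Nat.card_pos.ne'
  have hWN : (Nat.card W : ℂ) = 2 * (Nat.card N : ℂ) := by
    rw [← N.index_mul_card, hN]
    push_cast
    ring
  have e1 : ∑ w, (χ : W → ℂ) w * conj ((χ' : W → ℂ) w) = (Nat.card W : ℂ) * classInner (χ : W → ℂ) (χ' : W → ℂ) := by
    rw [classInner_def, ← mul_assoc, mul_inv_cancel₀ hWc, one_mul]
  have e2 : ∑ n : N, (χ : W → ℂ) n * conj ((χ' : W → ℂ) n) = (Nat.card N : ℂ) * classInner (ψ : N → ℂ) (ψ' : N → ℂ) := by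
    rw [classInner_def, ← mul_assoc, mul_inv_cancel₀ hNc, one_mul]
    refine Finset.sum_congr rfl fun n _ => ?_
    rw [hψ, hψ']
  rw [e1, e2] at hs
  constructor
  · intro heq
    have h1 : (ψ : N → ℂ) = ψ' := funext fun n => by rw [← hψ, ← hψ', heq]
    rw [heq, classInner_irr_self χ'.2, h1, classInner_irr_self ψ'.2, hWN] at hs
    rw [heq]
    linear_combination -hs
  · rintro ⟨n, hn⟩
    have h1 : (ψ : N → ℂ) ≠ ψ' := fun h1 => hn (by rw [hψ, hψ', h1])
    have h2 : (χ : W → ℂ) ≠ χ' := fun h2 => hn (by rw [h2])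
    rw [classInner_irr_ne χ.2 χ'.2 h2, classInner_irr_ne ψ.2 ψ'.2 h1] at hs
    linear_combination -hs

/-- irreducible restriction implies not vanishing -/
theorem not_van_of_irr (hN : N.index = 2) {χ : IrrCharacter W}
    (h : IsIrrCharacter N (fun n : N => (χ : W → ℂ) n)) : ¬ Van N χ := by
  classical
  have := Fintype.ofFinite W
  have := Fintype.ofFinite N
  intro hv
  have h1 := H348.PPD.IndexTwo.inner_half N hN (θ := (χ : W → ℂ)) (ζ := (χ : W → ℂ)) hv
  rw [classInner_irr_self χ.2, classInner_irr_self h] at h1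
  norm_num at h1

end Nv

section Main

variable {Z A W : Type u} [Group Z] [Group A] [Group W] {j : Z →* A} {i : A →* W}

/-- bad elements: all the characters over `lam` vanish -/
def Bad (k : Z →* W) (lam : Z →* ℂˣ) (w : W) : Prop := ∃ z, lam z ≠ 1 ∧ IsConj w (k z * w)

theorem bad_zero {k : Z →* W} {lam : Z →* ℂˣ} {w : W} (hw : Bad k lam w) {χ : W → ℂ} (hχ : IsIrrCharacter W χ)
    (ho : Over k lam χ) : χ w = 0 := by
  obtain ⟨z, hz, hc⟩ := hw
  have h1 : χ w = (lam z : ℂ) * χ w := by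
    rw [← ho z w]
    exact cf_isConj (isIrr_isClassFunction hχ) hc
  by_contra h2
  apply hz
  have h3 : ((lam z : ℂ) - 1) * χ w = 0 := by rw [sub_mul, one_mul, ← h1, sub_self]
  have h4 := (mul_eq_zero.1 h3).resolve_right h2
  exact Units.ext (sub_eq_zero.1 h4)

theorem Bad.rel {k : Z →* W} (hk : ∀ z w, k z * w = w * k z) {lam : Z →* ℂˣ} {w w' : W} (hw : Bad k lam w)
    (h : Rel k w w') : Bad k lam w' := by
  obtain ⟨z, hz, hc⟩ := hw
  obtain ⟨g, hg⟩ := isConj_iff.1 hc
  obtain ⟨z', h'⟩ := h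
  obtain ⟨g', rfl⟩ := isConj_iff.1 h'
  refine ⟨z, hz, isConj_iff.2 ⟨g' * g * g'⁻¹, ?_⟩⟩
  rw [conj_k hk, conj_k hk]
  have h1 : g' * g * g'⁻¹ * (g' * w * g'⁻¹) * (g' * g * g'⁻¹)⁻¹ = g' * (g * w * g⁻¹) * g'⁻¹ := by group
  rw [h1, hg, conj_k hk, ← mul_assoc, ← mul_assoc, hk z' (k z)]
  group

theorem fw_sum [Finite W] [Fintype Z] (k : Z →* W) (w w' : W) :
    Nat.card {p : Z × W // p.2 * (k p.1 * w) * p.2⁻¹ = w'} = ∑ z : Z, Nat.card {g : W // g * (k z * w) * g⁻¹ = w'} := by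
  rw [← Nat.card_sigma]
  exact Nat.card_congr (Equiv.subtypeProdEquivSigmaSubtype (fun z g => g * (k z * w) * g⁻¹ = w'))

theorem fw_pos [Finite W] [Finite Z] (k : Z →* W) (w : W) : 0 < fw k w := by
  haveI : Nonempty {p : Z × W // p.2 * (k p.1 * w) * p.2⁻¹ = w} := ⟨⟨(1, 1), by simp⟩⟩
  exact Nat.card_pos

theorem good_sum [Fintype W] [Fintype (IrrCharacter W)] [Fintype Z] {k : Z →* W} (hk : ∀ z w, k z * w = w * k z)
    {lam : Z →* ℂˣ} {w : W} (hw : ¬ Bad k lam w) [DecidablePred fun χ : IrrCharacter W => Over k lam (χ : W → ℂ)] :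
    (Nat.card Z : ℂ) * ∑ χ : IrrCharacter W, (if Over k lam (χ : W → ℂ) then (χ : W → ℂ) w * conj ((χ : W → ℂ) w) else 0) =
      (fw k w : ℂ) := by
  classical
  rw [colF hk, fw, fw_sum, Nat.cast_sum]
  refine Finset.sum_congr rfl fun z _ => ?_
  by_cases hz : lam z = 1
  · rw [hz, Units.val_one, inv_one, one_mul]
  · have : IsEmpty {g : W // g * (k z * w) * g⁻¹ = w} :=
      ⟨fun g => hw ⟨z, hz, (isConj_iff.2 ⟨g.1, g.2⟩ : IsConj (k z * w) w).symm⟩⟩
    rw [Nat.card_of_isEmpty, Nat.cast_zero, mul_zero]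

theorem col_zero [Fintype W] [Fintype (IrrCharacter W)] [Fintype Z] {k : Z →* W} (hk : ∀ z w, k z * w = w * k z)
    {lam : Z →* ℂˣ} {w w' : W} (hw : ¬ Rel k w w') [DecidablePred fun χ : IrrCharacter W => Over k lam (χ : W → ℂ)] :
    (Nat.card Z : ℂ) * ∑ χ : IrrCharacter W, (if Over k lam (χ : W → ℂ) then (χ : W → ℂ) w * conj ((χ : W → ℂ) w') else 0) =
      0 := by
  classical
  rw [colF hk]
  refine Finset.sum_eq_zero fun z _ => ?_
  have : IsEmpty {g : W // g * (k z * w) * g⁻¹ = w'} := ⟨fun g => hw ⟨z, isConj_iff.2 ⟨g.1, g.2⟩⟩⟩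
  rw [Nat.card_of_isEmpty, Nat.cast_zero, mul_zero]

/-- the sum over the good elements off `A` -/
theorem total [Fintype W] [Finite Z] (h : Pair j i) {c : W} (hc : c ∉ i.range) (lam : Z →* ℂˣ)
    [DecidablePred fun w => w ∉ i.range ∧ ¬ Bad (i.comp j) lam w] :
    ∑ w ∈ Finset.univ.filter (fun w => w ∉ i.range ∧ ¬ Bad (i.comp j) lam w), fw (i.comp j) w =
      Nat.card Z * (Nat.card i.range *
        (2 * Nat.card {η : IrrCharacter A // Over j lam (η : A → ℂ) ∧ Inv i c (η : A → ℂ)})) := by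
  classical
  haveI := nrm h
  have := Fintype.ofFinite Z
  have := finite_irr (G := W)
  have := Fintype.ofFinite (IrrCharacter W)
  have hk : ∀ z w, (i.comp j) z * w = w * (i.comp j) z := h.cen
  have hA : Finite A := Finite.of_injective i h.ii
  have e1 : Nat.card {χ : IrrCharacter W // Over (i.comp j) lam (χ : W → ℂ) ∧ ¬ Van i.range χ} =
      2 * Nat.card {η : IrrCharacter A // Over j lam (η : A → ℂ) ∧ Inv i c (η : A → ℂ)} := by
    rw [card_nv h.idx (fun χ => Over (i.comp j) lam (χ : W → ℂ)) (fun ψ => Over j lam (tr h ψ : A → ℂ))]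
    · congr 1
      refine Nat.card_congr (Equiv.subtypeEquiv (tr h) fun ψ => ?_)
      rw [inv_tr h hc ψ]
    · intro χ ψ hr
      have hft := Fintype.ofFinite A
      refine over_iff h χ (tr h ψ) hft lam ?_
      have h1 : (fun t => (χ : W → ℂ) (i t)) = (tr h ψ : A → ℂ) := funext fun t => hr (eqv h t)
      rw [h1, classInner_irr_self (tr h ψ).2]
      exact one_ne_zero
  have e2 : ∀ χ : IrrCharacter W, ∑ w ∈ Finset.univ.filter (fun w : W => w ∉ i.range),
      (if Over (i.comp j) lam (χ : W → ℂ) then (χ : W → ℂ) w * conj ((χ : W → ℂ) w) else 0) =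
      if Over (i.comp j) lam (χ : W → ℂ) ∧ ¬ Van i.range χ then (Nat.card i.range : ℂ) else 0 := by
    intro χ
    by_cases ho : Over (i.comp j) lam (χ : W → ℂ)
    · simp only [if_pos ho]
      by_cases hv : Van i.range χ
      · rw [if_neg (fun h => h.2 hv)]
        refine Finset.sum_eq_zero fun w hw => ?_
        rw [hv w (Finset.mem_filter.1 hw).2, zero_mul]
      · rw [if_pos ⟨ho, hv⟩]
        exact (sum_out h.idx hv hv).1 rfl
    · simp only [if_neg ho]
      rw [if_neg (fun h => ho h.1), Finset.sum_const_zero]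
  have e3 : ∑ w ∈ Finset.univ.filter (fun w : W => w ∉ i.range), ((Nat.card Z : ℂ) * ∑ χ : IrrCharacter W,
      (if Over (i.comp j) lam (χ : W → ℂ) then (χ : W → ℂ) w * conj ((χ : W → ℂ) w) else 0)) =
      (Nat.card Z : ℂ) * ((Nat.card i.range : ℂ) *
        (2 * Nat.card {η : IrrCharacter A // Over j lam (η : A → ℂ) ∧ Inv i c (η : A → ℂ)} : ℕ)) := by
    rw [← Finset.mul_sum, Finset.sum_comm, Finset.sum_congr rfl fun χ _ => e2 χ, ← Finset.sum_filter, Finset.sum_const,
      nsmul_eq_mul, ← e1, Nat.card_eq_fintype_card (α := {χ : IrrCharacter W // _}), Fintype.card_subtype]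
    ring
  have e4 : ∑ w ∈ Finset.univ.filter (fun w : W => w ∉ i.range), ((Nat.card Z : ℂ) * ∑ χ : IrrCharacter W,
      (if Over (i.comp j) lam (χ : W → ℂ) then (χ : W → ℂ) w * conj ((χ : W → ℂ) w) else 0)) =
      ∑ w ∈ Finset.univ.filter (fun w => w ∉ i.range ∧ ¬ Bad (i.comp j) lam w), (fw (i.comp j) w : ℂ) := by
    rw [← Finset.sum_filter_add_sum_filter_not (Finset.univ.filter fun w : W => w ∉ i.range)
      (fun w => ¬ Bad (i.comp j) lam w), Finset.filter_filter, Finset.filter_filter]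
    have e5 : ∑ w ∈ Finset.univ.filter (fun w : W => w ∉ i.range ∧ ¬ ¬ Bad (i.comp j) lam w), ((Nat.card Z : ℂ) *
        ∑ χ : IrrCharacter W, (if Over (i.comp j) lam (χ : W → ℂ) then (χ : W → ℂ) w * conj ((χ : W → ℂ) w) else 0)) =
        0 := by
      refine Finset.sum_eq_zero fun w hw => ?_
      have hb := not_not.1 (Finset.mem_filter.1 hw).2.2
      rw [Finset.sum_eq_zero, mul_zero]
      intro χ _
      by_cases ho : Over (i.comp j) lam (χ : W → ℂ)
      · rw [if_pos ho, bad_zero hb χ.2 ho, zero_mul]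
      · rw [if_neg ho]
    rw [e5, add_zero]
    exact Finset.sum_congr (by congr) fun w hw => good_sum hk (Finset.mem_filter.1 hw).2.2
  rw [e4] at e3
  exact_mod_cast e3

/-- **Piece j**. -/
theorem scal [Finite W] (h : Pair j i) {c : W}
    (hc : c ∉ i.range) (ρ : W ≃* W) (hρA : ∀ w, ρ w ∈ i.range ↔ w ∈ i.range) (hρZ : ∀ z, ρ (i (j z)) = i (j z))
    (lam : Z →* ℂˣ)
    (h4 : Nat.card {η : IrrCharacter A // Over j lam (η : A → ℂ) ∧ Inv i c (η : A → ℂ)} = 4)
    (h6 : Nat.card {η : IrrCharacter A // Over j 1 (η : A → ℂ) ∧ Inv i c (η : A → ℂ)} = 6)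
    (hbad : ∃ z, lam z ≠ 1 ∧ IsConj c (i (j z) * c)) (hρc : ∃ z, ρ c = i (j z) * c)
    (hη : ∃ χ : IrrCharacter W, Over (i.comp j) 1 (χ : W → ℂ) ∧ IsIrrCharacter A (fun t => (χ : W → ℂ) (i t)) ∧
      ∃ t, (χ : W → ℂ) (ρ (i t)) ≠ (χ : W → ℂ) (i t))
    (hscal : ∀ χ : IrrCharacter W, Over (i.comp j) lam (χ : W → ℂ) → ∀ w, w ∉ i.range →
      (χ : W → ℂ) (ρ w) = - (χ : W → ℂ) w) : False := by
  classical
  haveI := nrm h
  have := Fintype.ofFinite W
  have := finite_irr (G := W)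
  have := Fintype.ofFinite (IrrCharacter W)
  have hA : Finite A := Finite.of_injective i h.ii
  have hZ : Finite Z := Finite.of_injective j h.ji
  have := Fintype.ofFinite Z
  set k : Z →* W := i.comp j with hkdef
  have hk : ∀ z w, k z * w = w * k z := h.cen
  have hkN : ∀ z, k z ∈ i.range := fun z => ⟨j z, rfl⟩
  have hρk : ∀ z, ρ (k z) = k z := hρZ
  have hbad' : Bad k lam c := hbad
  -- the counts
  have t4 := total h hc lam
  have t6 := total h hc 1
  rw [h4] at t4
  rw [h6] at t6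
  have hb1 : ∀ w, ¬ Bad k 1 w := by
    rintro w ⟨z, hz, -⟩
    exact hz rfl
  have t6' : ∑ w ∈ Finset.univ.filter (fun w : W => w ∉ i.range), fw k w = Nat.card Z * (Nat.card i.range * (2 * 6)) := by
    rw [← t6]
    refine Finset.sum_congr ?_ fun _ _ => rfl
    ext w
    simp only [Finset.mem_filter, Finset.mem_univ, true_and]
    exact ⟨fun h => ⟨h, hb1 w⟩, fun h => h.1⟩
  have t2 : ∑ w ∈ Finset.univ.filter (fun w : W => w ∉ i.range ∧ Bad k lam w), fw k w =
      Nat.card Z * (Nat.card i.range * 4) := by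
    have h1 := Finset.sum_filter_add_sum_filter_not (Finset.univ.filter fun w : W => w ∉ i.range)
      (fun w => ¬ Bad k lam w) (fw k)
    rw [Finset.filter_filter, Finset.filter_filter, t6', t4] at h1
    have h2 : ∑ w ∈ Finset.univ.filter (fun w : W => w ∉ i.range ∧ ¬ ¬ Bad k lam w), fw k w =
        ∑ w ∈ Finset.univ.filter (fun w : W => w ∉ i.range ∧ Bad k lam w), fw k w := by
      refine Finset.sum_congr ?_ fun _ _ => rfl
      ext w
      simp only [Finset.mem_filter, Finset.mem_univ, true_and, not_not]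
    rw [h2] at h1
    have h3 : Nat.card Z * (Nat.card i.range * (2 * 4)) + Nat.card Z * (Nat.card i.range * 4) =
      Nat.card Z * (Nat.card i.range * (2 * 6)) := by ring
    omega
  have hWN : Nat.card W = 2 * Nat.card i.range := by rw [← h.idx, i.range.index_mul_card]
  have hrelN : ∀ {w w' : W}, Rel k w w' → (w ∈ i.range ↔ w' ∈ i.range) := by
    rintro w w' ⟨z, hz⟩
    obtain ⟨g, rfl⟩ := isConj_iff.1 hz
    constructor
    · intro hw
      exact (nrm h).conj_mem _ (mul_mem (hkN z) hw) g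
    · intro hw
      have h1 := (nrm h).conj_mem _ hw g⁻¹
      have h2 : g⁻¹ * (g * (k z * w) * g⁻¹) * g⁻¹⁻¹ = k z * w := by group
      rw [h2] at h1
      exact (Subgroup.mul_mem_cancel_left _ (hkN z)).1 h1
  -- at most two bad classes
  have three : ∀ w1 w2 : W, w1 ∉ i.range → w2 ∉ i.range → Bad k lam w1 → Bad k lam w2 → ¬ Rel k c w1 → ¬ Rel k c w2 →
      Rel k w1 w2 := by
    intro w1 w2 hw1 hw2 hb1 hb2 hn1 hn2
    by_contra hn
    have s0 := sum_class hk c
    have s1 := sum_class hk w1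
    have s2 := sum_class hk w2
    have hd1 : Disjoint (Finset.univ.filter fun w => Rel k c w) (Finset.univ.filter fun w => Rel k w1 w) := by
      rw [Finset.disjoint_left]
      intro w ha hb
      exact hn1 ((Finset.mem_filter.1 ha).2.trans hk ((Finset.mem_filter.1 hb).2.symm hk))
    have hd2 : Disjoint ((Finset.univ.filter fun w => Rel k c w) ∪ (Finset.univ.filter fun w => Rel k w1 w))
        (Finset.univ.filter fun w => Rel k w2 w) := by
      rw [Finset.disjoint_left]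
      intro w ha hb
      rcases Finset.mem_union.1 ha with ha | ha
      · exact hn2 ((Finset.mem_filter.1 ha).2.trans hk ((Finset.mem_filter.1 hb).2.symm hk))
      · exact hn ((Finset.mem_filter.1 ha).2.trans hk ((Finset.mem_filter.1 hb).2.symm hk))
    have hsub : ((Finset.univ.filter fun w => Rel k c w) ∪ (Finset.univ.filter fun w => Rel k w1 w)) ∪
        (Finset.univ.filter fun w => Rel k w2 w) ⊆ Finset.univ.filter (fun w : W => w ∉ i.range ∧ Bad k lam w) := by
      intro w hw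
      rw [Finset.mem_filter]
      refine ⟨Finset.mem_univ _, ?_⟩
      rcases Finset.mem_union.1 hw with hw | hw
      · rcases Finset.mem_union.1 hw with hw | hw
        · exact ⟨fun h1 => hc ((hrelN (Finset.mem_filter.1 hw).2).2 h1), hbad'.rel hk (Finset.mem_filter.1 hw).2⟩
        · exact ⟨fun h1 => hw1 ((hrelN (Finset.mem_filter.1 hw).2).2 h1), hb1.rel hk (Finset.mem_filter.1 hw).2⟩
      · exact ⟨fun h1 => hw2 ((hrelN (Finset.mem_filter.1 hw).2).2 h1), hb2.rel hk (Finset.mem_filter.1 hw).2⟩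
    have hle := Finset.sum_le_sum_of_subset (f := fw k) hsub
    rw [Finset.sum_union hd2, Finset.sum_union hd1, s0, s1, s2, t2, hWN] at hle
    have hpos : 0 < Nat.card Z * Nat.card i.range := Nat.mul_pos Nat.card_pos Nat.card_pos
    have e1 : Nat.card Z * (2 * Nat.card i.range) = 2 * (Nat.card Z * Nat.card i.range) := by ring
    have e2 : Nat.card Z * (Nat.card i.range * 4) = 4 * (Nat.card Z * Nat.card i.range) := by ring
    rw [e1, e2] at hle
    omega
  -- the character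
  obtain ⟨χ, ho, hirr, t, ht⟩ := hη
  have ho' : ∀ z w, (χ : W → ℂ) (k z * w) = (χ : W → ℂ) w := by
    intro z w
    have h1 := ho z w
    rwa [MonoidHom.one_apply, Units.val_one, one_mul] at h1
  have hrelχ : ∀ {w w' : W}, Rel k w w' → (χ : W → ℂ) w' = (χ : W → ℂ) w := by
    rintro w w' ⟨z, hz⟩
    rw [← ho' z w]
    exact (cf_isConj (isIrr_isClassFunction χ.2) hz).symm
  have hρrel : ∀ {w w' : W}, Rel k w w' → Rel k (ρ w) (ρ w') := by
    rintro w w' ⟨z, hz⟩
    obtain ⟨g, rfl⟩ := isConj_iff.1 hz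
    refine ⟨z, isConj_iff.2 ⟨ρ g, ?_⟩⟩
    rw [map_mul, map_mul, map_mul, map_inv, hρk]
  have hρrel' : ∀ {w w' : W}, Rel k (ρ w) (ρ w') → Rel k w w' := by
    rintro w w' ⟨z, hz⟩
    obtain ⟨g, hg⟩ := isConj_iff.1 hz
    obtain ⟨g, rfl⟩ := ρ.surjective g
    refine ⟨z, isConj_iff.2 ⟨g, ρ.injective ?_⟩⟩
    rw [map_mul, map_mul, map_mul, map_inv, hρk]
    exact hg
  have hρc' : Rel k c (ρ c) := by
    obtain ⟨z, hz⟩ := hρc
    exact ⟨z, by rw [hz]; exact IsConj.refl _⟩
  have hρbad : ∀ {w : W}, Bad k lam w → Bad k lam (ρ w) := by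
    rintro w ⟨z, hz, hcj⟩
    obtain ⟨g, hg⟩ := isConj_iff.1 hcj
    refine ⟨z, hz, isConj_iff.2 ⟨ρ g, ?_⟩⟩
    rw [← map_inv, ← map_mul, ← map_mul, hg, map_mul, hρk]
  have hD : ∀ w, w ∉ i.range → (χ : W → ℂ) (ρ w) = (χ : W → ℂ) w := by
    intro w hw
    by_cases hb : Bad k lam w
    · by_cases hcw : Rel k c w
      · rw [hrelχ hcw, hrelχ (hρrel hcw), hrelχ hρc']
      · refine hrelχ (three w (ρ w) hw (fun h1 => hw ((hρA w).1 h1)) hb (hρbad hb) hcw fun h1 => hcw ?_)
        exact hρrel' ((hρc'.symm hk).trans hk h1)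
    · refine hrelχ ?_
      by_contra hn
      have h1 := col_zero hk hn (lam := lam)
      have h2 : ∀ ψ : IrrCharacter W, (if Over k lam (ψ : W → ℂ) then (ψ : W → ℂ) w * conj ((ψ : W → ℂ) (ρ w)) else 0) =
          - (if Over k lam (ψ : W → ℂ) then (ψ : W → ℂ) w * conj ((ψ : W → ℂ) w) else 0) := by
        intro ψ
        by_cases hψ : Over k lam (ψ : W → ℂ)
        · rw [if_pos hψ, if_pos hψ, hscal ψ hψ w hw, map_neg, mul_neg]
        · rw [if_neg hψ, if_neg hψ, neg_zero]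
      rw [Finset.sum_congr rfl fun ψ _ => h2 ψ, Finset.sum_neg_distrib, mul_neg, good_sum hk hb, neg_eq_zero] at h1
      exact (fw_pos k w).ne' (by exact_mod_cast h1)
  -- the contradiction
  have hirrN : IsIrrCharacter i.range (fun n : i.range => (χ : W → ℂ) n) := by
    have h1 : (fun n : i.range => (χ : W → ℂ) n) = (fun t => (χ : W → ℂ) (i t)) ∘ (eqv h).symm := by
      funext n
      show (χ : W → ℂ) n = (χ : W → ℂ) (i ((eqv h).symm n))
      rw [← coe_eqv h, MulEquiv.apply_symm_apply]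
    rw [h1]
    exact isIrr_comp (eqv h).symm.toMonoidHom (eqv h).symm.surjective hirr
  have hnv : ¬ Van i.range χ := not_van_of_irr h.idx hirrN
  let χ' : IrrCharacter W := ⟨(χ : W → ℂ) ∘ ρ, isIrr_comp ρ.toMonoidHom ρ.surjective χ.2⟩
  have hnv' : ¬ Van i.range χ' := by
    intro hv
    apply hnv
    intro w hw
    obtain ⟨w', rfl⟩ := ρ.surjective w
    exact hv w' fun h1 => hw ((hρA w').2 h1)
  have hz : ∑ w ∈ Finset.univ.filter (fun w : W => w ∉ i.range), (χ : W → ℂ) w * conj ((χ' : W → ℂ) w) = 0 :=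
    (sum_out h.idx hnv hnv').2 ⟨⟨i t, ⟨t, rfl⟩⟩, fun h1 => ht h1.symm⟩
  have hz' : ∑ w ∈ Finset.univ.filter (fun w : W => w ∉ i.range), (χ : W → ℂ) w * conj ((χ' : W → ℂ) w) =
      (Nat.card i.range : ℂ) := by
    rw [← (sum_out h.idx hnv hnv).1 rfl]
    refine Finset.sum_congr rfl fun w hw => ?_
    have h1 : (χ' : W → ℂ) w = (χ : W → ℂ) w := hD w (Finset.mem_filter.1 hw).2
    rw [h1]
  rw [hz] at hz'
  have hpos : (Nat.card i.range : ℂ) ≠ 0 := by exact_mod_cast Nat.card_pos.ne'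
  exact hpos hz'.symm

end Main

end Cfsg.Agent.H41.TI
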